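import Cfsg.Agent.Lib.E6C.Data

/-! The brackets of the root matrices of degree 27. -/

namespace Cfsg.Lib.E6C

theorem br_chk : ∀ r s, s ≠ ng r → ∀ x, rowOK (sE r x * sE s (sr r x)) (sE s x * sE r (sr s x))
    (cc r s * sE (kk r s) x) (sr s (sr r x)) (sr r (sr s x)) (sr (kk r s) x) := by
  decide +kernel

end Cfsg.Lib.E6C
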