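import Cfsg.Agent.Lib.E6C.Rep
import Cfsg.Prelude.Def_E6

/-! The cubic form in 27 variables and its polar forms. -/

namespace Cfsg.Lib.E6C

open Cfsg.Lib.Chev Cfsg.Lie Matrix

abbrev Mon : Type := ℤ × Fin 27 × Fin 27 × Fin 27

variable {F : Type*} [Field F]

def ev3 (L : List Mon) (x y z : Fin 27 → F) : F :=
  (L.map fun m => (m.1 : F) * (x m.2.1 * y m.2.2.1 * z m.2.2.2)).sum

theorem ev3_nil (x y z : Fin 27 → F) : ev3 [] x y z = 0 := rfl

theorem ev3_cons (m : Mon) (L : List Mon) (x y z : Fin 27 → F) :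
    ev3 (m :: L) x y z = (m.1 : F) * (x m.2.1 * y m.2.2.1 * z m.2.2.2) + ev3 L x y z := by
  simp [ev3]

def rot (L : List Mon) : List Mon := List.rec [] (fun m _ ih =>
  m :: (m.1, m.2.1, m.2.2.2, m.2.2.1) :: (m.1, m.2.2.1, m.2.2.2, m.2.1) :: ih) L

def swp (L : List Mon) : List Mon :=
  List.rec [] (fun m _ ih => m :: (m.1, m.2.2.1, m.2.1, m.2.2.2) :: ih) L

theorem ev3_cube (L : List Mon) (x y : Fin 27 → F) (t : F) :
    ev3 L (x + t • y) (x + t • y) (x + t • y) = ev3 L x x x + t * ev3 (rot L) x x y +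
      t ^ 2 * ev3 (rot L) y y x + t ^ 3 * ev3 L y y y := by
  induction L with
  | nil => simp [rot, ev3_nil]
  | cons m L ih =>
    change _ = _ + t * ev3 (_ :: _ :: _ :: rot L) x x y + t ^ 2 * ev3 (_ :: _ :: _ :: rot L) y y x + _
    simp only [ev3_cons, ih, Pi.add_apply, Pi.smul_apply, smul_eq_mul]
    ring

theorem ev3_sq (L : List Mon) (x y z : Fin 27 → F) :
    ev3 L (x + y) (x + y) z = ev3 L x x z + ev3 L y y z + ev3 (swp L) x y z := by
  induction L with
  | nil => simp [swp, ev3_nil]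
  | cons m L ih =>
    change _ = _ + ev3 (_ :: _ :: swp L) x y z
    simp only [ev3_cons, ih, Pi.add_apply]
    ring

theorem ev3_smul (L : List Mon) (x y z : Fin 27 → F) (a b c : F) :
    ev3 L (a • x) (b • y) (c • z) = a * b * c * ev3 L x y z := by
  induction L with
  | nil => simp [ev3_nil]
  | cons m L ih =>
    simp only [ev3_cons, ih, Pi.smul_apply, smul_eq_mul]
    ring

theorem ev3_sum (L : List Mon) (x y z : Fin 27 → F) :
    ev3 L x y z = ∑ c, z c * ev3 L x y (Pi.single c 1) := by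
  induction L with
  | nil => simp [ev3_nil]
  | cons m L ih =>
    simp only [ev3_cons, mul_add, Finset.sum_add_distrib, ← ih]
    rw [Finset.sum_eq_single m.2.2.2 (fun c _ hc => by simp [Ne.symm hc]) (by simp)]
    simp only [Pi.single_eq_same]
    ring

theorem ev3_filter (L : List Mon) (a c : Fin 27) (y : Fin 27 → F) :
    ev3 L (Pi.single a 1) y (Pi.single c 1) =
      ev3 (L.filter fun m => m.2.1 = a ∧ m.2.2.2 = c) (Pi.single a 1) y (Pi.single c 1) := by
  induction L with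
  | nil => rfl
  | cons m L ih =>
    rw [List.filter_cons]
    split_ifs with h
    · rw [ev3_cons, ev3_cons, ih]
    · rw [ev3_cons, ih]
      rcases not_and_or.1 (by simpa using h : ¬ (m.2.1 = a ∧ m.2.2.2 = c)) with h | h <;> simp [h]

theorem ev3_eq_zero {L : List Mon} {x y z : Fin 27 → F}
    (h : ∀ m ∈ L, x m.2.1 = 0 ∨ y m.2.2.1 = 0 ∨ z m.2.2.2 = 0) : ev3 L x y z = 0 :=
  List.sum_eq_zero fun a ha => by
    obtain ⟨m, hm, rfl⟩ := List.mem_map.1 ha
    rcases h m hm with h | h | h <;> simp [h]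

/-- The cubic form. -/
def cub (v : Fin 27 → F) : F := ev3 tL v v v
/-- The derivative at `x` in the direction `y`. -/
def qd (x y : Fin 27 → F) : F := ev3 (rot tL) x x y
/-- The trilinear form. -/
def tri (x y z : Fin 27 → F) : F := ev3 (swp (rot tL)) x y z

theorem filter_chk : ∀ a c, (swp (rot tL)).filter (fun m => m.2.1 = a ∧ m.2.2.2 = c) =
    if sg a c = 0 then [] else [(sg a c, a, th a c, c)] := by decide +kernel

theorem tri_single (a c : Fin 27) (y : Fin 27 → F) :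
    tri (Pi.single a 1) y (Pi.single c 1) = sg a c * y (th a c) := by
  rw [tri, ev3_filter, filter_chk]
  split_ifs with h
  · simp [h, ev3_nil]
  · simp [ev3_cons, ev3_nil]

theorem sg_chk : ∀ a b, sg a b ≠ 0 → (sg a b = 1 ∨ sg a b = -1) ∧ sg a (th a b) ≠ 0 ∧
    th a (th a b) = b ∧ a ≠ b := by decide +kernel

theorem sg_ne {a b : Fin 27} (h : sg a b ≠ 0) : (sg a b : F) ≠ 0 := by
  rcases (sg_chk a b h).1 with h | h <;> simp [h]

theorem rot_chk : ∀ m ∈ rot tL, m.2.1 ≠ m.2.2.1 ∧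
    ∀ a, sg a m.2.2.2 ≠ 0 → sg a m.2.1 = 0 ∨ sg a m.2.2.1 = 0 := by decide +kernel

/-- The singular vectors. -/
def White (v : Fin 27 → F) : Prop := ∀ y, qd v y = 0

theorem white_single (a : Fin 27) (c : F) : White (Pi.single a c) := fun _ =>
  ev3_eq_zero fun m hm => by
    by_cases h : m.2.1 = a
    · exact Or.inr (Or.inl (Pi.single_eq_of_ne (h ▸ (rot_chk m hm).1.symm) _))
    · exact Or.inl (Pi.single_eq_of_ne h _)

theorem White.eq_single {v : Fin 27 → F} (h : White v) {a : Fin 27} (ha : v a ≠ 0)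
    (h0 : ∀ b, b ≠ a → sg a b = 0 → v b = 0) : v = Pi.single a (v a) := by
  obtain ⟨w, hw⟩ : ∃ w, v = Pi.single a (v a) + w := ⟨v - Pi.single a (v a), (add_sub_cancel _ _).symm⟩
  have h1 : ∀ b, sg a b = 0 → w b = 0 := fun b hb => by
    have := congrFun hw b
    by_cases e : b = a
    · simpa [e] using this
    · simpa [e, h0 b e hb] using this.symm
  have h2 : w = 0 := funext fun b => by
    by_cases hb : sg a b = 0
    · exact h1 b hb
    obtain ⟨-, h3, h4, -⟩ := sg_chk a b hb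
    have h5 := h (Pi.single (th a b) 1)
    have h6 : ev3 (rot tL) w w (Pi.single (th a b) 1) = 0 := ev3_eq_zero fun m hm => by
      by_cases e : m.2.2.2 = th a b
      · exact ((rot_chk m hm).2 a (e ▸ h3)).imp (h1 _) fun e => Or.inl (h1 _ e)
      · exact Or.inr (Or.inr (Pi.single_eq_of_ne e _))
    have h7 := ev3_smul (swp (rot tL)) (Pi.single a 1) w (Pi.single (th a b) 1) (v a) 1 1
    rw [one_smul, one_smul, ← Pi.single_smul, smul_eq_mul, mul_one, mul_one] at h7
    have h8 := white_single a (v a) (Pi.single (th a b) 1)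
    have h9 := tri_single a (th a b) w
    rw [qd] at h8
    rw [tri] at h9
    rw [hw, qd, ev3_sq, h6, h7, h8, zero_add, zero_add, h9, h4] at h5
    simpa [ha, sg_ne h3] using h5
  rw [h2, add_zero] at hw
  exact hw

/-- Opposite monomials. -/
def opp (m m' : Mon) : Bool :=
  decide (m.1 + m'.1 = 0 ∧ [m.2.1, m.2.2.1, m.2.2.2].Perm [m'.2.1, m'.2.2.1, m'.2.2.2])

def canc : ℕ → List Mon → Bool
  | _, [] => true
  | 0, _ :: _ => false
  | n + 1, m :: L => match L.find? (opp m) with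
    | none => false
    | some m' => canc n (L.erase m')

theorem ev3_of_canc (v : Fin 27 → F) : ∀ n L, canc n L = true → ev3 L v v v = 0
  | _, [], _ => rfl
  | 0, _ :: _, h => absurd h Bool.false_ne_true
  | n + 1, m :: L, h => by
    rw [canc] at h
    cases e : L.find? (opp m) with
    | none => rw [e] at h; exact absurd h Bool.false_ne_true
    | some m' =>
      rw [e] at h
      have h0 : opp m m' = true := List.find?_some e
      obtain ⟨h1, h2⟩ := of_decide_eq_true h0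
      have h3 : ev3 L v v v = ev3 (m' :: L.erase m') v v v :=
        ((List.perm_cons_erase (List.mem_of_find?_eq_some e)).map _).sum_eq
      have h4 := (h2.map v).prod_eq
      simp only [List.map_cons, List.map_nil, List.prod_cons, List.prod_nil, mul_one,
        ← mul_assoc] at h4
      rw [ev3_cons, h3, ev3_cons, ev3_of_canc v n _ h, h4, add_zero, ← add_mul, ← Int.cast_add, h1,
        Int.cast_zero, zero_mul]

def sbs (s₁ s₂ s₃ : Fin 27 → ℤ) (p₁ p₂ p₃ : Fin 27 → Fin 27) (L : List Mon) : List Mon :=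
  (L.map fun m => (m.1 * (s₁ m.2.1 * s₂ m.2.2.1 * s₃ m.2.2.2), p₁ m.2.1, p₂ m.2.2.1,
    p₃ m.2.2.2)).filter fun m => m.1 ≠ 0

theorem ev3_sbs (s₁ s₂ s₃ : Fin 27 → ℤ) (p₁ p₂ p₃ : Fin 27 → Fin 27) (L : List Mon)
    (v : Fin 27 → F) : ev3 L (fun x => s₁ x * v (p₁ x)) (fun x => s₂ x * v (p₂ x))
      (fun x => s₃ x * v (p₃ x)) = ev3 (sbs s₁ s₂ s₃ p₁ p₂ p₃ L) v v v := by
  induction L with
  | nil => rfl
  | cons m L ih =>
    rw [sbs, List.map_cons, List.filter_cons, ev3_cons, ih]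
    split_ifs with h
    · rw [ev3_cons]
      push_cast
      exact congrArg₂ _ (by ring) rfl
    · have := congrArg (Int.cast (R := F)) (by simpa only [ne_eq, decide_not, Bool.not_eq_eq_eq_not,
        Bool.not_true, decide_eq_false_iff_not, not_not] using h :
          m.1 * (s₁ m.2.1 * s₂ m.2.2.1 * s₃ m.2.2.2) = 0)
      push_cast at this
      exact (add_eq_right.2 (by
        linear_combination v (p₁ m.2.1) * v (p₂ m.2.2.1) * v (p₃ m.2.2.2) * this))

theorem inv_chk : ∀ r, canc 99 (sbs 1 1 (sE r) id id (sr r) (rot tL)) = true ∧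
    canc 99 (sbs (sE r) (sE r) 1 (sr r) (sr r) id (rot tL)) = true ∧
    canc 99 (sbs (sE r) (sE r) (sE r) (sr r) (sr r) (sr r) tL) = true := by decide +kernel

theorem cub_xG (r : Fin 72) (t : F) (v : Fin 27 → F) :
    cub ((rep.xG F r t : Matrix (Fin 27) (Fin 27) F) *ᵥ v) = cub v := by
  obtain ⟨h1, h2, h3⟩ := inv_chk r
  have e1 := (ev3_sbs _ _ _ _ _ _ _ v).trans (ev3_of_canc v _ _ h1)
  have e2 := (ev3_sbs _ _ _ _ _ _ _ v).trans (ev3_of_canc v _ _ h2)
  have e3 := (ev3_sbs _ _ _ _ _ _ _ v).trans (ev3_of_canc v _ _ h3)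
  simp only [Pi.one_apply, Int.cast_one, one_mul, id] at e1 e2
  rw [show (rep.xG F r t : Matrix (Fin 27) (Fin 27) F) *ᵥ v =
    v + t • fun x => (sE r x : F) * v (sr r x) from funext (xG_mulVec r t v), cub, ev3_cube, e1, e2, e3]
  simp [cub]

variable {g : GL (Fin 27) F}

theorem qd_inv (h2 : ∃ a : F, a ≠ 0 ∧ a ≠ 1) (hg : g ∈ funStab F cub) (x y : Fin 27 → F) :
    qd ((g : Matrix (Fin 27) (Fin 27) F) *ᵥ x) ((g : Matrix (Fin 27) (Fin 27) F) *ᵥ y) = qd x y := by
  obtain ⟨a, h0, h1⟩ := h2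
  have hg' : ∀ v, ev3 tL ((g : Matrix (Fin 27) (Fin 27) F) *ᵥ v) ((g : Matrix (Fin 27) (Fin 27) F) *ᵥ v)
    ((g : Matrix (Fin 27) (Fin 27) F) *ᵥ v) = ev3 tL v v v := hg
  have e1 := hg' (x + (1 : F) • y)
  have e2 := hg' (x + a • y)
  rw [mulVec_add, mulVec_smul, ev3_cube, ev3_cube, hg', hg'] at e1 e2
  refine mul_left_cancel₀ (mul_ne_zero h0 (sub_ne_zero.2 h1)) ?_
  unfold qd
  linear_combination a ^ 2 * e1 - e2

theorem tri_inv (h2 : ∃ a : F, a ≠ 0 ∧ a ≠ 1) (hg : g ∈ funStab F cub) (x y z : Fin 27 → F) :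
    tri ((g : Matrix (Fin 27) (Fin 27) F) *ᵥ x) ((g : Matrix (Fin 27) (Fin 27) F) *ᵥ y)
      ((g : Matrix (Fin 27) (Fin 27) F) *ᵥ z) = tri x y z := by
  have e1 := qd_inv h2 hg (x + y) z
  have e2 := qd_inv h2 hg x z
  have e3 := qd_inv h2 hg y z
  unfold qd at e1 e2 e3
  rw [mulVec_add, ev3_sq, ev3_sq, e2, e3] at e1
  exact add_left_cancel e1

theorem exists_mulVec (g : GL (Fin 27) F) (y : Fin 27 → F) :
    ∃ x, (g : Matrix (Fin 27) (Fin 27) F) *ᵥ x = y :=
  ⟨(g⁻¹ : GL (Fin 27) F) *ᵥ y, by rw [mulVec_mulVec, ← Units.val_mul, mul_inv_cancel, Units.val_one,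
    one_mulVec]⟩

theorem White.map (h2 : ∃ a : F, a ≠ 0 ∧ a ≠ 1) (hg : g ∈ funStab F cub) {v : Fin 27 → F}
    (hv : White v) : White ((g : Matrix (Fin 27) (Fin 27) F) *ᵥ v) := fun y => by
  obtain ⟨x, rfl⟩ := exists_mulVec g y
  rw [qd_inv h2 hg, hv]

end Cfsg.Lib.E6C
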