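import Cfsg.Agent.Lib.E6C.Form
import Cfsg.Agent.Lib.Chev.TorAct

/-! The isometry group of the cubic form in 27 variables is generated by its root elements. -/

namespace Cfsg.Lib.E6C

open Cfsg.Lib.Chev Cfsg.Lie Matrix PreSys

variable {F : Type*} [Field F]

local notation:73 g:74 " ⊙ " v:73 => Matrix.mulVec (Units.val g) v

theorem mul_act (g k : GL (Fin 27) F) (v : Fin 27 → F) : (g * k) ⊙ v = g ⊙ k ⊙ v := by
  simp only [Units.val_mul, mulVec_mulVec]

theorem one_act (v : Fin 27 → F) : (1 : GL (Fin 27) F) ⊙ v = v := one_mulVec v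

theorem inv_act (g : GL (Fin 27) F) (v : Fin 27 → F) : g⁻¹ ⊙ g ⊙ v = v := by
  rw [← mul_act, inv_mul_cancel, one_act]

theorem rt_chk : ∀ a b, a ≠ b → sg a b = 0 → sg b a = 0 ∧ sr (rt a b) b = a ∧
    (sE (rt a b) b = 1 ∨ sE (rt a b) b = -1) ∧
      ∀ x, x ≠ b → sE (rt a b) x = 0 ∨ (sg a x ≠ 0 ∧ sr (rt a b) x ≠ a) := by decide +kernel

theorem sg_self : ∀ a, sg a a = 0 := by decide +kernel

theorem ng_chk : ∀ r x, sE r x ≠ 0 → sE (ng r) (sr r x) ≠ 0 := by decide +kernel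

theorem mw_chk : ∀ a b, sg a b ≠ 0 → ∀ i, mw a i + mw b i + mw (th a b) i = 0 := by decide +kernel

theorem xG_mem (r : Fin 72) (t : F) : rep.xG F r t ∈ funStab F cub := cub_xG r t

theorem grp_le : (rep.sys F).grp ≤ funStab F cub := XS_le.2 fun r _ t => xG_mem r t

section

variable (h2 : ∃ a : F, a ≠ 0 ∧ a ≠ 1) {K : Subgroup (GL (Fin 27) F)}
include h2

theorem clear {a : Fin 27} (l : List (Fin 27))
    (hl : ∀ b ∈ l, b ≠ a ∧ sg a b = 0 ∧ ∀ t, rep.xG F (rt a b) t ∈ K) :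
    ∀ v : Fin 27 → F, White v → v a ≠ 0 → (∀ b, b ≠ a → sg a b = 0 → b ∉ l → v b = 0) →
      ∃ k ∈ K, k ⊙ v = Pi.single a (v a) := by
  induction l with
  | nil =>
    exact fun v hv ha h0 => ⟨1, one_mem _, by
      simpa using hv.eq_single ha fun b h1 h3 => h0 b h1 h3 List.not_mem_nil⟩
  | cons b l ih =>
    intro v hv ha h0
    obtain ⟨h1, h3, h4⟩ := hl b List.mem_cons_self
    obtain ⟨-, h5, h6, h7⟩ := rt_chk a b h1.symm h3
    have h8 : (sE (rt a b) b : F) ≠ 0 := by rcases h6 with h6 | h6 <;> simp [h6]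
    set t := -v b / (sE (rt a b) b * v a) with ht
    have h9 : ∀ x, x ≠ b → sg a x = 0 → (rep.xG F (rt a b) t ⊙ v) x = v x := fun x hx hs => by
      simp [-MinRep.coe_xG, xG_mulVec, (h7 x hx).resolve_right fun e => e.1 hs]
    obtain ⟨k, hk, e⟩ := ih (fun c hc => hl c (List.mem_cons_of_mem _ hc)) _
      (hv.map h2 (xG_mem (rt a b) t)) (by rwa [h9 a h1.symm (sg_self a)]) fun c e1 e2 e3 => by
        by_cases e : c = b
        · subst e
          rw [xG_mulVec, h5, ht]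
          field_simp
          ring
        · exact (h9 c e e2).trans (h0 c e1 e2 (by simp [e, e3]))
    exact ⟨k * _, mul_mem hk (h4 t), by rw [mul_act, e, h9 a h1.symm (sg_self a)]⟩

/-- The line of `a` is moved to the line of `b`. -/
def Rch (K : Subgroup (GL (Fin 27) F)) (a b : Fin 27) : Prop :=
  ∀ c : F, c ≠ 0 → ∃ k ∈ K, ∃ d : F, d ≠ 0 ∧ k ⊙ Pi.single a c = Pi.single b d

omit h2 in
theorem Rch.trans {a b c : Fin 27} (h : Rch K a b) (h' : Rch K b c) : Rch K a c := fun x hx => by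
  obtain ⟨k, hk, y, hy, e⟩ := h x hx
  obtain ⟨k', hk', z, hz, e'⟩ := h' y hy
  exact ⟨k' * k, mul_mem hk' hk, z, hz, by rw [mul_act, e, e']⟩

theorem move {a b : Fin 27} (h1 : a ≠ b) (h3 : sg a b = 0) (h4 : ∀ t, rep.xG F (rt a b) t ∈ K)
    (h4' : ∀ t, rep.xG F (rt b a) t ∈ K) : Rch K a b := fun c hc => by
  obtain ⟨h0, h5, h6, h7⟩ := rt_chk a b h1 h3
  have h8 : (rep.xG F (rt a b) 1 ⊙ Pi.single a c) b ≠ 0 := by
    rcases h6 with h6 | h6 <;> simp [-MinRep.coe_xG, xG_mulVec, h5, h6, h1.symm, hc]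
  obtain ⟨k, hk, e⟩ := clear h2 (K := K) (a := b) [a] (by simpa using ⟨h1, h0, h4'⟩) _
    ((white_single a c).map h2 (xG_mem (rt a b) 1)) h8 fun x e1 _ e3 => by
      have e4 : x ≠ a := by simpa using e3
      rcases h7 x e1 with e | e
      · simp [-MinRep.coe_xG, xG_mulVec, e, e4]
      · simp [-MinRep.coe_xG, xG_mulVec, e.2, e4]
  exact ⟨k * _, mul_mem hk (h4 1), _, h8, by rw [mul_act, e]⟩

end

variable (F) in
/-- The products of root elements that fix the basis vectors in `L`. -/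
def KF (L : List (Fin 27)) : Subgroup (GL (Fin 27) F) where
  carrier := {k | k ∈ (rep.sys F).grp ∧ ∀ a ∈ L, k ⊙ Pi.single a (1 : F) = Pi.single a 1}
  one_mem' := ⟨one_mem _, fun a _ => one_act _⟩
  mul_mem' h h' := ⟨mul_mem h.1 h'.1, fun a ha => by rw [mul_act, h'.2 a ha, h.2 a ha]⟩
  inv_mem' {k} h := ⟨inv_mem h.1, fun a ha => by
    nth_rw 1 [← h.2 a ha]
    exact inv_act _ _⟩

def okR (r : Fin 72) (L : List (Fin 27)) : Prop := ∀ a ∈ L, sE (ng r) a = 0

instance dec_okR (r : Fin 72) (L : List (Fin 27)) : Decidable (okR r L) := by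
  unfold okR; infer_instance

theorem mem_KF {r : Fin 72} {L : List (Fin 27)} (h : okR r L) (t : F) : rep.xG F r t ∈ KF F L :=
  ⟨(rep.sys F).x_mem_grp r t, fun a ha => funext fun x => by
    by_cases e : sE r x = 0
    · simp [-MinRep.coe_xG, xG_mulVec, e]
    · have : sr r x ≠ a := fun e' => ng_chk r x e (e' ▸ h a ha)
      simp [-MinRep.coe_xG, xG_mulVec, this]⟩

def inS (L : List (Fin 27)) (a b : Fin 27) : Prop := ∀ c ∈ L, sg c a = 0 → sg c b = 0

instance dec_inS (L : List (Fin 27)) (a b : Fin 27) : Decidable (inS L a b) := by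
  unfold inS; infer_instance

def two (L : List (Fin 27)) (a b : Fin 27) : Prop :=
  a ≠ b ∧ sg a b = 0 ∧ okR (rt a b) L ∧ okR (rt b a) L

def isP (L : List (Fin 27)) (a : Fin 27) (κ : Option (Fin 27)) (b : Fin 27) : Prop :=
  (κ = none → b ∉ L) ∧ ∀ c ∈ κ, sg c b ≠ 0 ∧ (th c a ∈ L → th c b = th c a)

def subOK (L : List (Fin 27)) (a b : Fin 27) : Prop :=
  (∀ c, inS L a c → c ≠ b → sg b c = 0 → okR (rt b c) L) ∧
    (b = a ∨ two L b a ∨ ∃ c, two L b c ∧ two L c a)

def stepOK (L : List (Fin 27)) (a : Fin 27) (κ : Option (Fin 27)) : Prop :=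
  a ∉ L ∧ (∀ c ∈ κ, c ∈ L ∧ sg c a ≠ 0) ∧ ∀ b, inS L a b → isP L a κ b → subOK L a b

instance dec_two (L : List (Fin 27)) (a b : Fin 27) : Decidable (two L a b) := by
  unfold two; infer_instance

instance dec_isP (L : List (Fin 27)) (a : Fin 27) (κ : Option (Fin 27)) (b : Fin 27) :
    Decidable (isP L a κ b) := by
  unfold isP; infer_instance

instance dec_subOK (L : List (Fin 27)) (a b : Fin 27) : Decidable (subOK L a b) := by
  unfold subOK; infer_instance

instance dec_stepOK (L : List (Fin 27)) (a : Fin 27) (κ : Option (Fin 27)) : Decidable (stepOK L a κ) := by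
  unfold stepOK; infer_instance

/-- The coordinate lines in `L` are fixed. -/
def Fx (g : GL (Fin 27) F) (L : List (Fin 27)) : Prop :=
  ∀ a ∈ L, ∃ c : F, g ⊙ Pi.single a (1 : F) = c • Pi.single a 1

theorem ne_zero_of_act {g : GL (Fin 27) F} {a : Fin 27} {c : F}
    (h : g ⊙ Pi.single a (1 : F) = c • Pi.single a 1) : c ≠ 0 := by
  rintro rfl
  have := congrArg (g⁻¹ ⊙ ·) h
  simp only [← mul_act, inv_mul_cancel, zero_smul, mulVec_zero, Units.val_one, one_mulVec] at this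
  simpa using congrFun this a

theorem tri_sum (a : Fin 27) (c : F) (y z : Fin 27 → F) :
    tri (c • Pi.single a 1) y z = c * ∑ b, z b * (sg a b * y (th a b)) := by
  have := ev3_smul (swp (rot tL)) (Pi.single a 1) y z c 1 1
  rw [one_smul, one_smul, mul_one, mul_one, ev3_sum _ (Pi.single a 1)] at this
  exact this.trans (congrArg _ (Finset.sum_congr rfl fun b _ => congrArg _ (tri_single a b y)))

variable (h2 : ∃ a : F, a ≠ 0 ∧ a ≠ 1) {g : GL (Fin 27) F} (hg : g ∈ funStab F cub)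
include h2 hg

theorem eq_zero_of_not_inS {L : List (Fin 27)} (hL : Fx g L) {a b : Fin 27} (h : ¬ inS L a b) :
    (g ⊙ Pi.single a (1 : F)) b = 0 := by
  simp only [inS, not_forall] at h
  obtain ⟨c, hc, h1, h3⟩ := h
  obtain ⟨d, hd⟩ := hL c hc
  obtain ⟨-, h4, h5, -⟩ := sg_chk c b h3
  obtain ⟨z, hz⟩ := exists_mulVec g (Pi.single (th c b) 1)
  have := tri_inv h2 hg (Pi.single c 1) (Pi.single a 1) z
  rw [hz, hd, tri_sum, ← one_smul F (Pi.single c 1), tri_sum,
    Finset.sum_eq_single (th c b) (fun x _ hx => by simp [hx]) (by simp), h5,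
    Finset.sum_eq_zero fun x _ => by
      by_cases e : sg c x = 0
      · simp [e]
      · have : th c x ≠ a := fun e' => (sg_chk c x e).2.1 (e' ▸ h1)
        simp [this]] at this
  simpa [ne_zero_of_act hd, sg_ne h4] using this

theorem exists_isP {L : List (Fin 27)} (hL : Fx g L) {a : Fin 27} {κ : Option (Fin 27)}
    (ha : a ∉ L) (hκ : ∀ c ∈ κ, c ∈ L ∧ sg c a ≠ 0) :
    ∃ b, isP L a κ b ∧ (g ⊙ Pi.single a (1 : F)) b ≠ 0 := by
  cases κ with
  | none =>
    by_contra! h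
    have h1 : (g⁻¹ ⊙ g ⊙ Pi.single a (1 : F)) a = 0 := by
      rw [mulVec, dotProduct]
      refine Finset.sum_eq_zero fun b _ => ?_
      by_cases hb : b ∈ L
      · obtain ⟨d, hd⟩ := hL b hb
        have := congrFun (inv_act g (Pi.single b (1 : F))) a
        rw [hd, mulVec_smul, mulVec_single_one,
          Pi.single_eq_of_ne (show a ≠ b from fun e => ha (e ▸ hb))] at this
        exact mul_eq_zero_of_left ((mul_eq_zero.1 this).resolve_left (ne_zero_of_act hd)) _
      · exact mul_eq_zero_of_right _ (h b ⟨fun _ => hb, by simp⟩)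
    rw [inv_act] at h1
    simp at h1
  | some c =>
    obtain ⟨hc, h1⟩ := hκ c rfl
    obtain ⟨d, hd⟩ := hL c hc
    obtain ⟨-, h4, h5, -⟩ := sg_chk c a h1
    have := tri_inv h2 hg (Pi.single c 1) (Pi.single a 1) (Pi.single (th c a) 1)
    rw [hd, tri_sum, tri_single, h5, Pi.single_eq_same,
      mul_one] at this
    obtain ⟨x, -, hx⟩ := Finset.exists_ne_zero_of_sum_ne_zero
      (right_ne_zero_of_mul (this ▸ sg_ne h4))
    have h6 : sg c x ≠ 0 := fun e => hx (by simp [e])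
    obtain ⟨-, h7, h8, -⟩ := sg_chk c x h6
    refine ⟨th c x, ⟨by simp, fun c' e => ?_⟩, right_ne_zero_of_mul (right_ne_zero_of_mul hx)⟩
    obtain rfl : c = c' := Option.some_injective _ e
    refine ⟨h7, fun h9 => ?_⟩
    obtain ⟨d', hd'⟩ := hL _ h9
    have h10 := left_ne_zero_of_mul hx
    rw [hd'] at h10
    by_contra e
    exact h10 (by simp [show x ≠ th c a from h8 ▸ e])

theorem step {L : List (Fin 27)} (hL : Fx g L) {a : Fin 27} {κ : Option (Fin 27)}
    (h : stepOK L a κ) : ∃ k ∈ (rep.sys F).grp, Fx (k * g) (a :: L) := by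
  obtain ⟨ha, hκ, h⟩ := h
  obtain ⟨b, hb, h1⟩ := exists_isP h2 hg hL ha hκ
  obtain ⟨h3, h4⟩ := h b (by_contra fun e => h1 (eq_zero_of_not_inS h2 hg hL e)) hb
  obtain ⟨k, hk, e⟩ := clear h2 (K := KF F L) (a := b)
    ((List.finRange 27).filter fun c => inS L a c ∧ c ≠ b ∧ sg b c = 0)
    (fun c hc => by
      obtain ⟨e1, e2, e3⟩ := of_decide_eq_true (List.mem_filter.1 hc).2
      exact ⟨e2, e3, mem_KF (h3 c e1 e2 e3)⟩) _ ((white_single a 1).map h2 hg) h1
    fun c e1 e2 e3 => eq_zero_of_not_inS h2 hg hL fun e4 =>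
      e3 (List.mem_filter.2 ⟨List.mem_finRange c, decide_eq_true ⟨e4, e1, e2⟩⟩)
  have h5 : ∀ x y, two L x y → Rch (KF F L) x y := fun x y e =>
    move h2 e.1 e.2.1 (mem_KF e.2.2.1) (mem_KF e.2.2.2)
  have h6 : Rch (KF F L) b a := by
    rcases h4 with rfl | h4 | ⟨c, h4, h4'⟩
    · exact fun c hc => ⟨1, one_mem _, c, hc, one_act _⟩
    · exact h5 _ _ h4
    · exact (h5 _ _ h4).trans (h5 _ _ h4')
  obtain ⟨k', hk', d, -, e'⟩ := h6 _ h1
  have h7 := mul_mem hk' hk
  refine ⟨k' * k, h7.1, fun x hx => ?_⟩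
  rcases List.mem_cons.1 hx with rfl | hx
  · exact ⟨d, by rw [mul_act, mul_act, e, e', ← Pi.single_smul, smul_eq_mul, mul_one]⟩
  · obtain ⟨c, hc⟩ := hL x hx
    exact ⟨c, by rw [mul_act, hc]; exact (mulVec_smul _ _ _).trans (congrArg _ (h7.2 x hx))⟩

omit h2 hg

def chain : List (Fin 27) → List (Fin 27 × Option (Fin 27)) → Bool
  | L, [] => decide (∀ a, a ∈ L)
  | L, s :: S => decide (stepOK L s.1 s.2) && chain (s.1 :: L) S

theorem chain_chk : chain [] [
  (0, none), (1, none), (2, none), (9, some 0), (12, some 1), (15, some 2), (18, some 0), (3,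
  none), (4, none), (5, none), (6, some 1), (7, some 0), (8, some 0), (10, none), (11, none), (13,
  some 15), (14, some 15), (16, some 9), (17, some 9), (19, some 9), (20, some 9), (21, some 0),
  (22, some 3), (23, some 6), (24, some 0), (25, some 18), (26, some 18)] = true := by
  decide +kernel

theorem chain_spec (h2 : ∃ a : F, a ≠ 0 ∧ a ≠ 1) : ∀ (S : List (Fin 27 × Option (Fin 27)))
    (L : List (Fin 27)) (g : GL (Fin 27) F), chain L S = true → g ∈ funStab F cub → Fx g L →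
      ∃ k ∈ (rep.sys F).grp, ∀ a, ∃ c : F, (k * g) ⊙ Pi.single a (1 : F) = c • Pi.single a 1
  | [], L, g, h, _, hL => ⟨1, one_mem _, fun a => by
      rw [one_mul]; exact hL a (of_decide_eq_true h a)⟩
  | s :: S, L, g, h, hg, hL => by
    rw [chain, Bool.and_eq_true] at h
    obtain ⟨k, hk, e⟩ := step h2 hg hL (of_decide_eq_true h.1)
    obtain ⟨k', hk', e'⟩ := chain_spec h2 S _ _ h.2 (mul_mem (grp_le hk) hg) e
    exact ⟨k' * k, mul_mem hk' hk, by rwa [mul_assoc]⟩

def cover : List (Fin 27) → List (Fin 27 × Fin 27) → Bool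
  | L, [] => decide (∀ a, a ∈ L)
  | L, s :: S => decide (s.1 ∈ L ∧ s.2 ∈ L ∧ sg s.1 s.2 ≠ 0) && cover (th s.1 s.2 :: L) S

theorem cover_spec {p : Fin 27 → Prop} (hp : ∀ a b, sg a b ≠ 0 → p a → p b → p (th a b)) :
    ∀ S L, cover L S = true → (∀ a ∈ L, p a) → ∀ a, p a
  | [], L, h, hL => fun a => hL a (of_decide_eq_true h a)
  | s :: S, L, h, hL => by
    rw [cover, Bool.and_eq_true] at h
    obtain ⟨h1, h3, h4⟩ := of_decide_eq_true h.1
    exact cover_spec hp S _ h.2 (List.forall_mem_cons.2 ⟨hp _ _ h4 (hL _ h1) (hL _ h3), hL⟩)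

def bs : Fin 6 → Fin 27 := ![0, 1, 2, 3, 9, 10]

theorem cover_chk : cover (List.ofFn bs) [
  (0, 9), (0, 10), (1, 3), (0, 8), (1, 18), (1, 21), (2, 3), (0, 7), (1, 5), (2, 18), (2, 21), (3,
  9), (3, 10), (9, 13), (2, 17), (0, 24), (1, 24), (3, 11), (9, 6), (10, 6), (18, 22)] = true := by
  decide +kernel

def wI : Matrix (Fin 6) (Fin 6) ℤ := Matrix.of (toM 6 6
  [[1, 0, -1, 0, 1, 1], [2, 0, -1, 0, 1, 1], [2, 0, -2, -1, 1, 1], [4, -1, -3, -1, 2, 2], [3, -1,
  -2, -1, 2, 1], [1, 0, -1, 0, 1, 0]])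

theorem wI_chk : (Matrix.of fun j i => mw (bs j) i) * wI = 1 := by decide +kernel

theorem mem_grp (h2 : ∃ a : F, a ≠ 0 ∧ a ≠ 1) {g : GL (Fin 27) F} (hg : g ∈ funStab F cub) :
    g ∈ (rep.sys F).grp := by
  obtain ⟨k, hk, e⟩ := chain_spec h2 _ _ g chain_chk hg fun _ h => absurd h List.not_mem_nil
  have hg' := mul_mem (grp_le hk) hg
  rw [← mul_mem_cancel_left hk]
  generalize k * g = u at e hg'
  choose d hd using e
  let D : Fin 27 → Fˣ := fun a => Units.mk0 (d a) (ne_zero_of_act (hd a))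
  let c := mAct wI fun j => D (bs j)
  have key : ∀ a, D a = ∏ i, c i ^ mw a i := cover_spec (fun a b h ha hb => by
    obtain ⟨-, h4, h5, -⟩ := sg_chk a b h
    have h6 := tri_inv h2 hg' (Pi.single a 1) (Pi.single b 1) (Pi.single (th a b) 1)
    rw [hd a, hd b,
      hd (th a b), tri, ev3_smul, ← tri, tri_single, h5,
      Pi.single_eq_same, mul_one, mul_eq_right₀ (sg_ne h4)] at h6
    have h7 : D a * D b * D (th a b) = 1 := Units.ext h6
    rw [← mul_right_inj (D a * D b), h7, ha, hb]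
    simp only [← Finset.prod_mul_distrib, ← _root_.zpow_add, mw_chk a b h, zpow_zero,
      Finset.prod_const_one]) _ _ cover_chk fun a ha => by
    obtain ⟨j, rfl⟩ := List.mem_ofFn.1 ha
    have := congrFun (mAct_mul (Matrix.of fun j i => mw (bs j) i) wI fun j => D (bs j)) j
    rwa [wI_chk, mAct_one] at this
  have h3 : u = (rep.hMul F).torus c := Units.ext (by
    rw [MinRep.coe_torus]
    ext x y
    have := congrFun (hd y) x
    simp only [mulVec_single_one, col_apply, Pi.smul_apply, smul_eq_mul] at this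
    rw [this, diagonal_apply]
    simp only [μ_simple, ← key]
    by_cases h : x = y <;> simp [h, D])
  exact h3 ▸ (rep.sys F).H_le_grp ((rep.hMul F).torus_mem_H c)

end Cfsg.Lib.E6C
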