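import Cfsg.Agent.Lib.E6C.Br

/-! The minuscule representation of degree 27 of the root system `E₆`. -/

namespace Cfsg.Lib.E6C

open Cfsg.Lib.Chev Cfsg.Lie Matrix RootSys

/-- The root system of type `E₆`. -/
noncomputable abbrev RE : RootSys (Fin 6) (Fin 72) := checkedE6.R

theorem pair_eq (i : Fin 6) (r : Fin 72) : RE.pair (RE.simple i) r = caN chevE6 i r :=
  ((caN_eq chevE6 i r).trans (checkedE6.cartan_eq i r)).symm

theorem co_eq (r : Fin 72) (i : Fin 6) : RE.co r i = coN chevE6 r i := rfl

theorem neg_eq (r : Fin 72) : RE.neg r = ng r :=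
  Fin.ext ((ngN_eq chevE6 r).symm.trans (Nat.mod_eq_of_lt
    ((ngN_eq chevE6 r).trans_lt (RE.neg r).2)).symm)

/-- A matrix with at most one entry in each row. -/
def mono {A : Type*} [Zero A] (s : Fin 27 → A) (p : Fin 27 → Fin 27) :
    Matrix (Fin 27) (Fin 27) A := Matrix.of fun x y => if y = p x then s x else 0

theorem mono_mul (s s' : Fin 27 → ℤ) (p p' : Fin 27 → Fin 27) :
    mono s p * mono s' p' = mono (fun x => s x * s' (p x)) fun x => p' (p x) := by
  ext x z
  rw [mul_apply, Finset.sum_eq_single (p x) (fun y _ hy => by simp [mono, hy]) (by simp)]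
  simp [mono]

def eM (r : Fin 72) : Matrix (Fin 27) (Fin 27) ℤ := mono (sE r) (sr r)

/-- The representation of degree 27. -/
noncomputable def rep : MinRep RE (Fin 27) where
  e := eM
  μ x s := ∑ i, RE.co s i * mw x i
  noG2 r s := by
    have := pair_chk r s
    rw [sumTo_eq] at this
    simpa only [RE.pair_eq_sum r s, pair_eq, co_eq] using this
  sq r := by
    rw [eM, mono_mul]
    ext x y
    simp [mono, sq_chk]
  ne r h := by
    obtain ⟨x, hx⟩ := ne_chk r
    exact hx (by simpa [eM, mono] using congrFun (congrFun h x) (sr r x))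
  wt r x y h s := by
    simp only [eM, mono, of_apply, ne_eq, ite_eq_right_iff, Classical.not_imp] at h
    obtain ⟨rfl, h⟩ := h
    simp only [RE.pair_eq_sum s r, pair_eq, ← Finset.sum_add_distrib, ← mul_add, ← wt_chk r x h]
  cartan r := by
    rw [neg_eq, eM, eM, mono_mul, mono_mul]
    ext x y
    obtain ⟨h1, h2, h3⟩ := car_chk r x
    rw [sumTo_eq] at h3
    rw [Matrix.sub_apply, diagonal_apply]
    simp only [mono, of_apply]
    by_cases h : x = y
    · subst h
      rw [if_pos rfl]
      refine Eq.trans ?_ h3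
      congr 1
      · rcases h1 with h1 | h1 <;> simp [h1]
      · rcases h2 with h2 | h2 <;> simp [h2]
    · rw [if_neg h]
      have e1 : (if y = sr (ng r) (sr r x) then sE r x * sE (ng r) (sr r x) else 0) = 0 := by
        rcases h1 with h1 | h1 <;> simp [h1, Ne.symm h]
      have e2 : (if y = sr r (sr (ng r) x) then sE (ng r) x * sE r (sr (ng r) x) else 0) = 0 := by
        rcases h2 with h2 | h2 <;> simp [h2, Ne.symm h]
      rw [e1, e2, sub_zero]
  br r s h := by
    rw [neg_eq] at h
    have key : eM r * eM s - eM s * eM r = cc r s • eM (kk r s) := by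
      rw [eM, eM, eM, mono_mul, mono_mul]
      ext x y
      rw [Matrix.sub_apply, Matrix.smul_apply, smul_eq_mul]
      simp only [mono, of_apply, mul_ite, mul_zero]
      rcases br_chk r s h x with ⟨h1, h2, h3⟩ | ⟨h1, h2, h3⟩ | ⟨h1, h2, h3⟩ | ⟨h1, h2, h3⟩
      · simp [h1, h2, h3]
      · simp [h1, h2, h3]
      · simp [h1, h2, h3]
      · simp only [h1, ← h2, h3, ite_self, zero_sub]
        split_ifs <;> simp
    by_cases hc : cc r s = 0
    · exact Or.inl (by rwa [hc, zero_smul, sub_eq_zero] at key)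
    · exact Or.inr ⟨kk r s, cc r s, funext (sum_chk r s hc), key⟩

theorem μ_simple (x : Fin 27) (i : Fin 6) : rep.μ x (RE.simple i) = mw x i := by
  change ∑ j, RE.co (RE.simple i) j * mw x j = _
  simp [co_simple, Pi.single_apply]

variable {F : Type*} [Field F]

theorem xG_mulVec (r : Fin 72) (t : F) (v : Fin 27 → F) (x : Fin 27) :
    ((rep.xG F r t : Matrix (Fin 27) (Fin 27) F) *ᵥ v) x = v x + t * (sE r x * v (sr r x)) := by
  rw [MinRep.coe_xG, add_mulVec, one_mulVec, smul_mulVec, Pi.add_apply, Pi.smul_apply, smul_eq_mul,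
    mulVec, dotProduct, Finset.sum_eq_single (sr r x) (fun y _ hy => by
      simp [MinRep.E_apply, rep, eM, mono, hy]) (by simp)]
  simp [MinRep.E_apply, rep, eM, mono]

theorem laced : RE.Laced := fun i j h => by
  rw [IsCartan.A_eq (n := 6) (R := RE) (isCartanE6 checkedE6)]
  revert i j
  decide

end Cfsg.Lib.E6C
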